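import Cfsg.Agent.Lib.RankOne.Setup

/-! Uniqueness of the canonical form `g h t f` in the rank-one set-up. -/

namespace CfsgLib.RankOne

open MulAction

variable {G Ω : Type*} [Group G] [MulAction G Ω] {a : Ω} {t : G} {Q : Subgroup G}
variable (hS : Cfsg.IsRankOneSetup G Ω a t Q)
include hS

theorem canon_unique {g h f g' h' f' : G} (hg : g ∈ Q)
    (hh : h ∈ stabilizer G a ⊓ stabilizer G (t • a)) (hf : f ∈ Q) (hg' : g' ∈ Q)
    (hh' : h' ∈ stabilizer G a ⊓ stabilizer G (t • a)) (hf' : f' ∈ Q)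
    (e : g * h * t * f = g' * h' * t * f') : g = g' ∧ h = h' ∧ f = f' := by
  have key : ∀ {p d q : G}, p ∈ Q → d ∈ stabilizer G a ⊓ stabilizer G (t • a) →
      (p * d * t * q) • (q⁻¹ • (t • a)) = a := by
    intro p d q hp hd
    rw [mul_smul (p * d * t), smul_inv_smul, mul_smul, tb hS, mul_smul, (mem_D.1 hd).1,
      Q_fix_a hS hp]
  have h1 := key (q := f) hg hh
  have h2 := key (q := f') hg' hh'
  rw [← e] at h2
  have h3 := q_unique hS (Q.inv_mem hf') (Q.inv_mem hf) (smul_left_cancel _ (h2.trans h1.symm))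
  have hff : f = f' := (inv_inj.1 h3).symm
  subst hff
  obtain ⟨hgg, hhh⟩ := qd_unique hS hg hg' hh.2 hh'.2
    (mul_right_cancel (mul_right_cancel e))
  exact ⟨hgg, hhh, rfl⟩

end CfsgLib.RankOne
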