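import Cfsg.Agent.Lib.RankOne.Setup

/-! The elements of `D` inverted by `t`, the structure equation, centralisers of subsets of `D`. -/

namespace CfsgLib.RankOne

open MulAction

variable {G Ω : Type*} [Group G] [Finite G] [MulAction G Ω] {a : Ω} {t : G} {Q : Subgroup G}

theorem mem_involutionsIn {S : Set G} {x : G} :
    x ∈ Cfsg.involutionsIn S ↔ x ∈ S ∧ x ≠ 1 ∧ x * x = 1 := Iff.rfl

variable (hS : Cfsg.IsRankOneSetup G Ω a t Q)
include hS

theorem K_conj {k : G} (hk : k ∈ Cfsg.invertedBy (stabilizer G a ⊓ stabilizer G (t • a)) t) :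
    t * k * t = k⁻¹ := by
  have := hk.2
  rwa [t_inv hS] at this

theorem D_odd {d : G} (hd : d ∈ stabilizer G a ⊓ stabilizer G (t • a)) : Odd (orderOf d) :=
  hS.odd_card.of_dvd_nat (Subgroup.orderOf_dvd_natCard _ hd)

theorem D_norm : ∀ x ∈ stabilizer G a ⊓ stabilizer G (t • a),
    t * x * t⁻¹ ∈ stabilizer G a ⊓ stabilizer G (t • a) := fun _ hx => conj_t_mem hS hx

/-- the involution `tk` -/
theorem tk_swap {k : G} (hk : k ∈ Cfsg.invertedBy (stabilizer G a ⊓ stabilizer G (t • a)) t) :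
    t * k ≠ 1 ∧ t * k * (t * k) = 1 ∧ (t * k) • a = t • a := by
  have hka : k • a = a := hk.1.1
  refine ⟨fun h => ?_, ?_, by rw [mul_smul, hka]⟩
  · have : k = t := by rw [eq_inv_of_mul_eq_one_right h, t_inv hS]
    exact ba hS (this ▸ hka)
  · rw [← mul_assoc, K_conj hS hk, inv_mul_cancel]

theorem swap_eq_tk {u : G} (hu : u * u = 1) (h : u • a = t • a) :
    t * u ∈ Cfsg.invertedBy (stabilizer G a ⊓ stabilizer G (t • a)) t := by
  have hub : u • (t • a) = a := by rw [← h, ← mul_smul, hu, one_smul]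
  refine ⟨mem_D.2 ⟨?_, ?_⟩, ?_⟩
  · rw [mul_smul, h, tb hS]
  · rw [mul_smul, hub]
  · have hui : u⁻¹ = u := inv_eq_of_mul_eq_one_right hu
    rw [mul_inv_rev, hui, t_inv hS, ← mul_assoc t t, hS.mul_self, one_mul]

theorem tk_eq_conj {k : G} (hk : k ∈ Cfsg.invertedBy (stabilizer G a ⊓ stabilizer G (t • a)) t) :
    t * k = (oddRoot (stabilizer G a ⊓ stabilizer G (t • a)) k)⁻¹ * t *
      oddRoot (stabilizer G a ⊓ stabilizer G (t • a)) k := by
  have hl := oddRoot_inverted hk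
  set l := oddRoot (stabilizer G a ⊓ stabilizer G (t • a)) k with hl_def
  have hsq : l * l = k := oddRoot_sq hS.odd_card hk.1
  rw [← K_conj hS hl, ← hsq]
  simp only [mul_assoc]
  simp only [← mul_assoc t t, hS.mul_self, one_mul]

theorem kt_inverts {d k : G} (hk : k ∈ Cfsg.invertedBy (stabilizer G a ⊓ stabilizer G (t • a)) t)
    (hdk : d * k ∈ Cfsg.invertedBy (stabilizer G a ⊓ stabilizer G (t • a)) t) :
    (k * t) * (k * t) = 1 ∧ (k * t) • a ≠ a ∧ (k * t) * d * (k * t)⁻¹ = d⁻¹ := by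
  refine ⟨?_, ?_, ?_⟩
  · rw [mul_assoc, ← mul_assoc t, K_conj hS hk, mul_inv_cancel]
  · rw [mul_smul, (mem_D.1 hk.1).2]
    exact ba hS
  · have h := K_conj hS hdk
    have h1 : t * d * t = k⁻¹ * d⁻¹ * k := by
      calc t * d * t = (t * (d * k) * t) * (t * k * t)⁻¹ := by
            rw [mul_inv_rev, mul_inv_rev, t_inv hS]
            simp only [mul_assoc]
            simp only [← mul_assoc t t, hS.mul_self, one_mul, mul_inv_cancel_left]
        _ = k⁻¹ * d⁻¹ * k := by rw [h, K_conj hS hk]; group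
    calc k * t * d * (k * t)⁻¹ = k * (t * d * t) * k⁻¹ := by rw [mul_inv_rev, t_inv hS]; group
      _ = d⁻¹ := by rw [h1]; group

/-- conjugation by `K` is injective on an involution of `G_a` -/
theorem K_conj_inj {s k k' : G} (hs : s ∈ Cfsg.involutionsIn (stabilizer G a : Set G))
    (hk : k ∈ Cfsg.invertedBy (stabilizer G a ⊓ stabilizer G (t • a)) t)
    (hk' : k' ∈ Cfsg.invertedBy (stabilizer G a ⊓ stabilizer G (t • a)) t)
    (h : k⁻¹ * s * k = k'⁻¹ * s * k') : k = k' := by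
  obtain ⟨hsa, hs1, hs2⟩ := hs
  set d := k' * k⁻¹ with hd
  have hdD : d ∈ stabilizer G a ⊓ stabilizer G (t • a) :=
    Subgroup.mul_mem _ hk'.1 (Subgroup.inv_mem _ hk.1)
  have hsd : s * d = d * s := by
    calc s * d = k' * (k'⁻¹ * s * k') * k⁻¹ := by rw [hd]; group
      _ = k' * (k⁻¹ * s * k) * k⁻¹ := by rw [h]
      _ = d * s := by rw [hd]; group
  have hdk : d * k = k' := by rw [hd]; group
  obtain ⟨hv, hva, hvd⟩ := kt_inverts hS hk (d := d) (by rw [hdk]; exact hk')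
  have := no_inverted hS (D_odd hS hdD) hs1 hs2 hsa hsd hv hva hvd
  rw [← hdk, this, one_mul]

theorem conj_inv_mem {s g : G} (hs : s ∈ Cfsg.involutionsIn (stabilizer G a : Set G))
    (hg : g • a = a) : g⁻¹ * s * g ∈ Cfsg.involutionsIn (stabilizer G a : Set G) := by
  refine ⟨?_, fun h => hs.2.1 ?_, ?_⟩
  · change (g⁻¹ * s * g) • a = a
    rw [mul_smul, mul_smul, hg, show s • a = a from hs.1]
    exact inv_smul_eq_iff.2 hg.symm
  · have : s = g * (g⁻¹ * s * g) * g⁻¹ := by group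
    rw [this, h]; group
  · rw [show g⁻¹ * s * g * (g⁻¹ * s * g) = g⁻¹ * (s * s) * g by group, hs.2.2]; group

theorem card_K : Nat.card (Cfsg.invertedBy (stabilizer G a ⊓ stabilizer G (t • a)) t) =
    Nat.card (Cfsg.involutionsIn (stabilizer G a : Set G)) := by
  classical
  have hfin := finite_Omega hS
  have := Fintype.ofFinite Ω
  let Inv : Type _ := {u : G // u ≠ 1 ∧ u * u = 1}
  let K := Cfsg.invertedBy (stabilizer G a ⊓ stabilizer G (t • a)) t
  let I := Cfsg.involutionsIn (stabilizer G a : Set G)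
  let W : Type _ := {p : Inv × Ω // p.1.1 • p.2 ≠ p.2}
  have cne : ∀ c : Ω, Nat.card {x : Ω // x ≠ c} = Nat.card Q := fun c => by
    have h1 : Fintype.card {x : Ω // ¬ x = c} = Fintype.card Ω - Fintype.card {x : Ω // x = c} :=
      Fintype.card_subtype_compl _
    rw [Fintype.card_subtype_eq, ← Nat.card_eq_fintype_card, ← Nat.card_eq_fintype_card,
      card_omega hS, Nat.add_sub_cancel] at h1
    exact h1
  choose fx hfx using fun u : Inv => inv_fix hS u.2.2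
  have hfu : ∀ (u : Inv) (c : Ω), u.1 • c = c ↔ c = fx u := fun u c =>
    ⟨fun h => inv_fix_unique hS u.2.1 u.2.2 h (hfx u), fun h => h ▸ hfx u⟩
  choose g hg using fun c : Ω => exists_smul_eq' hS c
  have cInv : Nat.card Inv = Nat.card Ω * Nat.card I := by
    have e : ∀ c : Ω, Nat.card {u : Inv // fx u = c} = Nat.card I := fun c => by
      refine Nat.card_eq_of_bijective (fun u =>
        (⟨(g c)⁻¹ * u.1.1 * g c, ?_, ?_, ?_⟩ : I)) ⟨?_, ?_⟩
      · change ((g c)⁻¹ * u.1.1 * g c) • a = a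
        rw [mul_smul, mul_smul, hg, (hfu u.1 c).2 u.2.symm]
        exact inv_smul_eq_iff.2 (hg c).symm
      · intro h
        apply u.1.2.1
        have : u.1.1 = g c * ((g c)⁻¹ * u.1.1 * g c) * (g c)⁻¹ := by group
        rw [this, h]; group
      · rw [show (g c)⁻¹ * u.1.1 * g c * ((g c)⁻¹ * u.1.1 * g c) =
          (g c)⁻¹ * (u.1.1 * u.1.1) * g c by group, u.1.2.2]; group
      · intro u v h
        have := congrArg Subtype.val h
        simp only at this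
        exact Subtype.ext (Subtype.ext (mul_left_cancel (mul_right_cancel this)))
      · rintro ⟨s, hsa, hs1, hs2⟩
        refine ⟨⟨⟨g c * s * (g c)⁻¹, fun h => hs1 ?_, ?_⟩, ?_⟩, ?_⟩
        · have : s = (g c)⁻¹ * (g c * s * (g c)⁻¹) * g c := by group
          rw [this, h]; group
        · rw [show g c * s * (g c)⁻¹ * (g c * s * (g c)⁻¹) = g c * (s * s) * (g c)⁻¹ by group,
            hs2]; group
        · refine ((hfu _ c).1 ?_).symm
          change (g c * s * (g c)⁻¹) • c = c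
          rw [mul_smul, mul_smul, inv_smul_eq_iff.2 (hg c).symm, show s • a = a from hsa, hg]
        · exact Subtype.ext (by group)
    rw [← Nat.card_congr (Equiv.sigmaFiberEquiv fx), Nat.card_sigma]
    simp only [e, Finset.sum_const, Finset.card_univ, smul_eq_mul, Nat.card_eq_fintype_card]
  have cW1 : Nat.card W = Nat.card Inv * Nat.card Q := by
    have e : W ≃ Σ u : Inv, {c : Ω // c ≠ fx u} :=
      { toFun := fun p => ⟨p.1.1, p.1.2, fun h => p.2 ((hfu _ _).2 h)⟩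
        invFun := fun p => ⟨(p.1, p.2.1), fun h => p.2.2 ((hfu _ _).1 h)⟩
        left_inv := fun p => rfl
        right_inv := fun p => rfl }
    have := Fintype.ofFinite Inv
    rw [Nat.card_congr e, Nat.card_sigma]
    simp only [cne, Finset.sum_const, Finset.card_univ, smul_eq_mul, Nat.card_eq_fintype_card]
  have cW2 : Nat.card W = Nat.card {p : Ω × Ω // p.2 ≠ p.1} * Nat.card K := by
    let f : W → {p : Ω × Ω // p.2 ≠ p.1} := fun p => ⟨(p.1.2, p.1.1.1 • p.1.2), p.2⟩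
    have e : ∀ p, Nat.card {w : W // f w = p} = Nat.card K := fun p => by
      obtain ⟨⟨x, y⟩, hxy⟩ := p
      obtain ⟨h, hhx, hhy⟩ := two_pre hS (ba hS).symm (Ne.symm hxy)
      refine Nat.card_eq_of_bijective (fun w =>
        (⟨t * (h⁻¹ * w.1.1.1.1 * h), swap_eq_tk hS ?_ ?_⟩ : K)) ⟨?_, ?_⟩
      · rw [show h⁻¹ * w.1.1.1.1 * h * (h⁻¹ * w.1.1.1.1 * h) =
          h⁻¹ * (w.1.1.1.1 * w.1.1.1.1) * h by group, w.1.1.1.2.2]; group
      · have h2 := congrArg (fun p => p.1) w.2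
        simp only [f, Prod.mk.injEq] at h2
        have hu : w.1.1.1.1 • x = y :=
          (congrArg (fun z => w.1.1.1.1 • z) h2.1).symm.trans h2.2
        rw [mul_smul, mul_smul, hhx, hu]
        exact inv_smul_eq_iff.2 hhy.symm
      · intro v w hvw
        have h1 := congrArg Subtype.val hvw
        simp only at h1
        have h2 := congrArg (fun p => p.1.1) w.2
        have h3 := congrArg (fun p => p.1.1) v.2
        simp only [f] at h2 h3
        exact Subtype.ext (Subtype.ext (Prod.ext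
          (Subtype.ext (mul_left_cancel (mul_right_cancel (mul_left_cancel h1)))) (h3.trans h2.symm)))
      · rintro ⟨k, hk⟩
        obtain ⟨h1, h2, h3⟩ := tk_swap hS hk
        have hu : (h * (t * k) * h⁻¹) • x = y := by
          rw [mul_smul, mul_smul, inv_smul_eq_iff.2 hhx.symm, h3, hhy]
        refine ⟨⟨⟨(⟨h * (t * k) * h⁻¹, fun e => h1 ?_, ?_⟩, x), by rw [hu]; exact hxy⟩, ?_⟩, ?_⟩
        · have : t * k = h⁻¹ * (h * (t * k) * h⁻¹) * h := by group
          rw [this, e]; group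
        · rw [show h * (t * k) * h⁻¹ * (h * (t * k) * h⁻¹) = h * (t * k * (t * k)) * h⁻¹ by group,
            h2]; group
        · exact Subtype.ext (Prod.ext rfl hu)
        · refine Subtype.ext ?_
          change t * (h⁻¹ * (h * (t * k) * h⁻¹) * h) = k
          rw [show h⁻¹ * (h * (t * k) * h⁻¹) * h = t * k by group, ← mul_assoc, hS.mul_self, one_mul]
    rw [← Nat.card_congr (Equiv.sigmaFiberEquiv f), Nat.card_sigma]
    simp only [e, Finset.sum_const, Finset.card_univ, smul_eq_mul, Nat.card_eq_fintype_card]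
  have cP : Nat.card {p : Ω × Ω // p.2 ≠ p.1} = Nat.card Ω * Nat.card Q := by
    rw [Nat.card_congr (Equiv.subtypeProdEquivSigmaSubtype fun x y : Ω => y ≠ x), Nat.card_sigma]
    simp only [cne, Finset.sum_const, Finset.card_univ, smul_eq_mul, Nat.card_eq_fintype_card]
  rw [cW1, cInv, cP, mul_right_comm] at cW2
  have hpos : 0 < Nat.card Ω * Nat.card Q :=
    Nat.mul_pos (by rw [card_omega hS]; omega) Nat.card_pos
  exact (mul_left_cancel₀ hpos.ne' cW2).symm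

theorem K_trans {s s' : G} (hs : s ∈ Cfsg.involutionsIn (stabilizer G a : Set G))
    (hs' : s' ∈ Cfsg.involutionsIn (stabilizer G a : Set G)) :
    ∃ k ∈ Cfsg.invertedBy (stabilizer G a ⊓ stabilizer G (t • a)) t, k⁻¹ * s * k = s' := by
  let f : Cfsg.invertedBy (stabilizer G a ⊓ stabilizer G (t • a)) t →
      Cfsg.involutionsIn (stabilizer G a : Set G) :=
    fun k => ⟨(k : G)⁻¹ * s * k, conj_inv_mem hS hs k.2.1.1⟩
  have hinj : Function.Injective f := fun k k' h =>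
    Subtype.ext (K_conj_inj hS hs k.2 k'.2 (congrArg Subtype.val h))
  have hb := (Nat.bijective_iff_injective_and_card f).2 ⟨hinj, card_K hS⟩
  obtain ⟨k, hk⟩ := hb.2 ⟨s', hs'⟩
  exact ⟨k, k.2, congrArg Subtype.val hk⟩

theorem structure_exists : ∃ s r : G,
    s ∈ Cfsg.involutionsIn (stabilizer G a : Set G) ∧ r ∈ Q ∧ t * s * t = r⁻¹ * t * r := by
  obtain ⟨c, hc, hca, _⟩ := exists_fix_t hS
  obtain ⟨r, hr, hrc⟩ := exists_q hS hca
  refine ⟨t * (r⁻¹ * t * r) * t, r, ⟨?_, ?_, ?_⟩, hr, ?_⟩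
  · change (t * (r⁻¹ * t * r) * t) • a = a
    simp only [mul_smul]
    rw [hrc, hc, inv_smul_eq_iff.2 hrc.symm, tb hS]
  · intro h
    apply hS.ne_one
    calc t = r * (t⁻¹ * (t * (r⁻¹ * t * r) * t) * t⁻¹) * r⁻¹ := by group
      _ = r * (t * t) * r⁻¹ := by rw [h, t_inv hS, mul_one]
      _ = 1 := by rw [hS.mul_self, mul_one, mul_inv_cancel]
  · have : t * (r⁻¹ * t * r) * t * (t * (r⁻¹ * t * r) * t) =
        t * r⁻¹ * t * (r * (t * t) * r⁻¹) * t * r * t := by group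
    rw [this, hS.mul_self]; simp [mul_assoc, hS.mul_self]
  · simp only [mul_assoc, hS.mul_self, mul_one]
    rw [← mul_assoc t t, hS.mul_self, one_mul]

theorem structure_unique {s r s' r' : G} (hs : s ∈ Cfsg.involutionsIn (stabilizer G a : Set G))
    (hr : r ∈ Q) (h : t * s * t = r⁻¹ * t * r)
    (hs' : s' ∈ Cfsg.involutionsIn (stabilizer G a : Set G))
    (hr' : r' ∈ Q) (h' : t * s' * t = r'⁻¹ * t * r') : s = s' ∧ r = r' := by
  have key : ∀ {s r : G}, s • a = a → t * s * t = r⁻¹ * t * r → t • (r • (t • a)) = r • (t • a) := by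
    intro s r hsa h
    have e := congrArg (fun g : G => g • (t • a)) h
    simp only [mul_smul, tb hS, hsa] at e
    exact (eq_inv_smul_iff.1 e).symm
  have hrr : r = r' := q_unique hS hr hr'
    (inv_fix_unique hS hS.ne_one hS.mul_self (key hs.1 h) (key hs'.1 h'))
  subst hrr
  exact ⟨mul_left_cancel (mul_right_cancel (h.trans h'.symm)), rfl⟩

theorem CD_le {s r : G} (hs : s ∈ Cfsg.involutionsIn (stabilizer G a : Set G))
    (hr : r ∈ Q) (h : t * s * t = r⁻¹ * t * r) :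
    (stabilizer G a ⊓ stabilizer G (t • a)) ⊓ Subgroup.centralizer {t} ≤
      (stabilizer G a ⊓ stabilizer G (t • a)) ⊓ Subgroup.centralizer {s} := by
  rintro d ⟨hd, hdt⟩
  refine ⟨hd, ?_⟩
  have htd : t * d = d * t := mem_centralizer_singleton'.1 hdt
  have e1 : d⁻¹ * t * d = t := by rw [mul_assoc, htd, ← mul_assoc, inv_mul_cancel, one_mul]
  have h' : t * (d⁻¹ * s * d) * t = (d⁻¹ * r * d)⁻¹ * t * (d⁻¹ * r * d) := by
    have e2 : t * d⁻¹ = d⁻¹ * t := (Commute.inv_right (show Commute t d from htd)).eq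
    calc t * (d⁻¹ * s * d) * t = (t * d⁻¹) * s * (d * t) := by group
      _ = d⁻¹ * (t * s * t) * d := by rw [e2, ← htd]; group
      _ = d⁻¹ * (r⁻¹ * t * r) * d := by rw [h]
      _ = (d⁻¹ * r * d)⁻¹ * (d⁻¹ * t * d) * (d⁻¹ * r * d) := by group
      _ = (d⁻¹ * r * d)⁻¹ * t * (d⁻¹ * r * d) := by rw [e1]
  obtain ⟨h1, -⟩ := structure_unique hS (conj_inv_mem hS hs hd.1) (conjQ' hS hd.1 hr) h' hs hr h
  refine mem_centralizer_singleton'.2 ?_
  calc s * d = d * (d⁻¹ * s * d) := by group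
    _ = d * s := by rw [h1]

theorem card_D_eq {s : G} (hs : s ∈ Cfsg.involutionsIn (stabilizer G a : Set G)) :
    Nat.card ↥(stabilizer G a ⊓ stabilizer G (t • a)) =
      Nat.card ↥((stabilizer G a ⊓ stabilizer G (t • a)) ⊓ Subgroup.centralizer {s}) *
        Nat.card (Cfsg.invertedBy (stabilizer G a ⊓ stabilizer G (t • a)) t) := by
  rw [← Nat.card_prod]
  refine (Nat.card_eq_of_bijective (fun p :
    ↥((stabilizer G a ⊓ stabilizer G (t • a)) ⊓ Subgroup.centralizer {s}) ×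
      Cfsg.invertedBy (stabilizer G a ⊓ stabilizer G (t • a)) t =>
    (⟨(p.1 : G) * p.2, Subgroup.mul_mem _ p.1.2.1 p.2.2.1⟩ :
      ↥(stabilizer G a ⊓ stabilizer G (t • a)))) ⟨?_, ?_⟩).symm
  · rintro ⟨⟨c, hc, hcs⟩, ⟨k, hk⟩⟩ ⟨⟨c', hc', hcs'⟩, ⟨k', hk'⟩⟩ h
    have e : c * k = c' * k' := congrArg Subtype.val h
    have x1 : ∀ {c : G}, c ∈ Subgroup.centralizer {s} → c⁻¹ * s * c = s := fun {c} hc => by
      rw [mul_assoc, mem_centralizer_singleton'.1 hc, ← mul_assoc, inv_mul_cancel, one_mul]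
    have hkk : k = k' := K_conj_inj hS hs hk hk' <| by
      calc k⁻¹ * s * k = k⁻¹ * (c⁻¹ * s * c) * k := by rw [x1 hcs]
        _ = (c * k)⁻¹ * s * (c * k) := by group
        _ = k'⁻¹ * (c'⁻¹ * s * c') * k' := by rw [e]; group
        _ = k'⁻¹ * s * k' := by rw [x1 hcs']
    subst hkk
    obtain rfl := mul_right_cancel e
    rfl
  · rintro ⟨d, hd⟩
    obtain ⟨k, hk, e⟩ := K_trans hS hs (conj_inv_mem hS hs hd.1)
    refine ⟨(⟨d * k⁻¹, Subgroup.mul_mem _ hd (Subgroup.inv_mem _ hk.1), ?_⟩, ⟨k, hk⟩), ?_⟩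
    · refine mem_centralizer_singleton'.2 ?_
      calc s * (d * k⁻¹) = d * (d⁻¹ * s * d) * k⁻¹ := by group
        _ = d * (k⁻¹ * s * k) * k⁻¹ := by rw [e]
        _ = d * k⁻¹ * s := by group
    · exact Subtype.ext (by simp)

theorem CD_eq {s r : G} (hs : s ∈ Cfsg.involutionsIn (stabilizer G a : Set G))
    (hr : r ∈ Q) (h : t * s * t = r⁻¹ * t * r) :
    (stabilizer G a ⊓ stabilizer G (t • a)) ⊓ Subgroup.centralizer {t} =
      (stabilizer G a ⊓ stabilizer G (t • a)) ⊓ Subgroup.centralizer {s} := by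
  refine Subgroup.eq_of_le_of_card_ge (CD_le hS hs hr h) (le_of_eq ?_)
  have h1 := card_eq_card_centralizer_mul_inverted hS.mul_self (D_norm hS) hS.odd_card
  rw [card_D_eq hS hs] at h1
  have hK : 0 < Nat.card (Cfsg.invertedBy (stabilizer G a ⊓ stabilizer G (t • a)) t) := by
    have : Nonempty (Cfsg.invertedBy (stabilizer G a ⊓ stabilizer G (t • a)) t) :=
      ⟨⟨1, Subgroup.one_mem _, by simp⟩⟩
    exact Nat.card_pos
  exact mul_right_cancel₀ hK.ne' h1

omit [Finite G] in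
theorem qd_commute {q d : G} (hq : q ∈ Q) (hd : d ∈ stabilizer G a ⊓ stabilizer G (t • a))
    (h : d • (q • (t • a)) = q • (t • a)) : d * q = q * d := by
  have := q_unique hS (conjQ hS hd.1 hq) hq
    (by rw [mul_smul, mul_smul, inv_smul_eq_iff.2 (mem_D.1 hd).2.symm, h])
  exact mul_inv_eq_iff_eq_mul.1 this

omit [Finite G] [MulAction G Ω] hS in
theorem mem_centralizer_set {X : Set G} {g : G} :
    g ∈ Subgroup.centralizer X ↔ ∀ x ∈ X, x * g = g * x := Subgroup.mem_centralizer_iff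

omit [Finite G] hS in
theorem centralizer_preserves {X : Set G} {g : G} (hg : g ∈ Subgroup.centralizer X) {c : Ω}
    (hc : ∀ x ∈ X, x • c = c) : ∀ x ∈ X, x • (g • c) = g • c := fun x hx => by
  rw [← mul_smul, mem_centralizer_set.1 hg x hx, mul_smul, hc x hx]

theorem C_from_b {X : Set G} (hX : X ⊆ ((stabilizer G a ⊓ stabilizer G (t • a)) : Set G))
    {c : Ω} (hca : c ≠ a) (hc : ∀ x ∈ X, x • c = c) :
    ∃ q ∈ Q, q ∈ Subgroup.centralizer X ∧ q • (t • a) = c := by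
  obtain ⟨q, hq, rfl⟩ := exists_q hS hca
  exact ⟨q, hq, mem_centralizer_set.2 fun x hx => qd_commute hS hq (hX hx) (hc x hx), rfl⟩

theorem C_from_a {X : Set G} (hX : X ⊆ ((stabilizer G a ⊓ stabilizer G (t • a)) : Set G))
    {c : Ω} (hcb : c ≠ t • a) (hc : ∀ x ∈ X, x • c = c) :
    ∃ g ∈ Subgroup.centralizer X, g • a = c := by
  have htc : t • c ≠ a := fun h => hcb (by rw [← h, ← mul_smul, hS.mul_self, one_smul])
  obtain ⟨q, hq, hqc⟩ := exists_q hS htc
  refine ⟨t * q * t, mem_centralizer_set.2 fun x hx => ?_, ?_⟩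
  · have hfix : (t * x * t) • (q • (t • a)) = q • (t • a) := by
      rw [hqc, mul_smul, mul_smul, ← mul_smul t t c, hS.mul_self, one_smul, hc x hx]
    have := qd_commute hS hq (conj_t_mem' hS (hX hx)) hfix
    calc x * (t * q * t) = (t * t) * x * t * q * t := by rw [hS.mul_self]; group
      _ = t * ((t * x * t) * q) * t := by group
      _ = t * (q * (t * x * t)) * t := by rw [this]
      _ = t * q * t * x * (t * t) := by group
      _ = t * q * t * x := by rw [hS.mul_self, mul_one]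
  · rw [mul_smul, mul_smul, hqc, ← mul_smul, hS.mul_self, one_smul]

theorem C_trans_a {X : Set G} (hX : X ⊆ ((stabilizer G a ⊓ stabilizer G (t • a)) : Set G))
    (h3 : ∃ e : Ω, e ≠ a ∧ e ≠ t • a ∧ ∀ x ∈ X, x • e = e) {c : Ω} (hc : ∀ x ∈ X, x • c = c) :
    ∃ g ∈ Subgroup.centralizer X, g • a = c := by
  by_cases hcb : c = t • a
  · obtain ⟨e, hea, heb, he⟩ := h3
    obtain ⟨g, hg, hga⟩ := C_from_a hS hX heb he
    obtain ⟨q, _, hq, hqb⟩ := C_from_b hS hX hea he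
    refine ⟨q⁻¹ * g, Subgroup.mul_mem _ (Subgroup.inv_mem _ hq) hg, ?_⟩
    rw [mul_smul, hga, ← hqb, inv_smul_smul, hcb]
  · exact C_from_a hS hX hcb hc

theorem C_to_ab {X : Set G} (hX : X ⊆ ((stabilizer G a ⊓ stabilizer G (t • a)) : Set G))
    (h3 : ∃ e : Ω, e ≠ a ∧ e ≠ t • a ∧ ∀ x ∈ X, x • e = e) {c₁ c₂ : Ω}
    (hc₁ : ∀ x ∈ X, x • c₁ = c₁) (hc₂ : ∀ x ∈ X, x • c₂ = c₂) (hne : c₁ ≠ c₂) :
    ∃ g ∈ Subgroup.centralizer X, g • c₁ = a ∧ g • c₂ = t • a := by
  obtain ⟨g, hg, hga⟩ := C_trans_a hS hX h3 hc₁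
  have hgi := Subgroup.inv_mem _ hg
  have hne' : g⁻¹ • c₂ ≠ a := fun h => hne (by rw [← hga, ← h, smul_inv_smul])
  obtain ⟨q, hq, hqC, hqb⟩ := C_from_b hS hX hne' (centralizer_preserves hgi hc₂)
  refine ⟨q⁻¹ * g⁻¹, Subgroup.mul_mem _ (Subgroup.inv_mem _ hqC) hgi, ?_, ?_⟩
  · rw [mul_smul, ← hga, inv_smul_smul]
    exact inv_smul_eq_iff.2 (Q_fix_a hS hq).symm
  · rw [mul_smul, ← hqb, inv_smul_smul]

theorem C_two_trans {X : Set G} (hX : X ⊆ ((stabilizer G a ⊓ stabilizer G (t • a)) : Set G))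
    (h3 : ∃ e : Ω, e ≠ a ∧ e ≠ t • a ∧ ∀ x ∈ X, x • e = e) {b₁ b₂ c₁ c₂ : Ω}
    (hb₁ : ∀ x ∈ X, x • b₁ = b₁) (hb₂ : ∀ x ∈ X, x • b₂ = b₂)
    (hc₁ : ∀ x ∈ X, x • c₁ = c₁) (hc₂ : ∀ x ∈ X, x • c₂ = c₂) (hb : b₁ ≠ b₂) (hc : c₁ ≠ c₂) :
    ∃ g ∈ Subgroup.centralizer X, g • b₁ = c₁ ∧ g • b₂ = c₂ := by
  obtain ⟨g, hg, g1, g2⟩ := C_to_ab hS hX h3 hb₁ hb₂ hb
  obtain ⟨h, hh, h1, h2⟩ := C_to_ab hS hX h3 hc₁ hc₂ hc
  refine ⟨h⁻¹ * g, Subgroup.mul_mem _ (Subgroup.inv_mem _ hh) hg, ?_, ?_⟩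
  · rw [mul_smul, g1, ← h1, inv_smul_smul]
  · rw [mul_smul, g2, ← h2, inv_smul_smul]

theorem third_point {X : Set G}
    (h3 : ∃ b c d : Ω, b ≠ c ∧ b ≠ d ∧ c ≠ d ∧ ∀ x ∈ X, x • b = b ∧ x • c = c ∧ x • d = d) :
    ∃ e : Ω, e ≠ a ∧ e ≠ t • a ∧ ∀ x ∈ X, x • e = e := by
  obtain ⟨b, c, d, hbc, hbd, hcd, h⟩ := h3
  by_cases h1 : b = a ∨ b = t • a
  · by_cases h2 : c = a ∨ c = t • a
    · refine ⟨d, ?_, ?_, fun x hx => (h x hx).2.2⟩
      all_goals rcases h1 with rfl | rfl <;> rcases h2 with rfl | rfl <;>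
        first | exact (Ne.symm hbd) | exact (Ne.symm hcd) | exact absurd rfl hbc
    · exact ⟨c, fun e => h2 (.inl e), fun e => h2 (.inr e), fun x hx => (h x hx).2.1⟩
  · exact ⟨b, fun e => h1 (.inl e), fun e => h1 (.inr e), fun x hx => (h x hx).1⟩

theorem C_involution {X : Set G} (hX : X ⊆ ((stabilizer G a ⊓ stabilizer G (t • a)) : Set G))
    (h3 : ∃ e : Ω, e ≠ a ∧ e ≠ t • a ∧ ∀ x ∈ X, x • e = e) :
    ∃ s ∈ Subgroup.centralizer X, s ∈ Q ∧ s ≠ 1 ∧ s * s = 1 := by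
  have hfa : ∀ x ∈ X, x • a = a := fun x hx => (mem_D.1 (hX hx)).1
  have hfb : ∀ x ∈ X, x • (t • a) = t • a := fun x hx => (mem_D.1 (hX hx)).2
  obtain ⟨g, hg, hga, hgb⟩ :=
    C_two_trans hS hX h3 hfa hfb hfb hfa (ba hS).symm (ba hS)
  obtain ⟨k, m, hm, hkm⟩ := Nat.exists_eq_two_pow_mul_odd (orderOf_pos g).ne'
  have hswap : ∀ n : ℕ, g ^ (2 * n) • a = a := fun n => by
    rw [pow_mul]
    exact (stabilizer G a).pow_mem (show (g ^ 2) • a = a by rw [pow_two, mul_smul, hga, hgb]) n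
  obtain ⟨j, hj⟩ := hm
  have hgm : g ^ m • a = t • a := by rw [hj, pow_succ', mul_smul, hswap, hga]
  have hne : g ^ m ≠ 1 := fun h => ba hS (by rw [← hgm, h, one_smul])
  have hk : (g ^ m) ^ (2 ^ k) = 1 := by
    rw [← pow_mul, mul_comm, ← hkm, pow_orderOf_eq_one]
  -- the involution in the cyclic group generated by `g ^ m`
  have hex : ∃ u : G, u ∈ Subgroup.centralizer X ∧ u ≠ 1 ∧ u * u = 1 := by
    have hy : g ^ m ∈ Subgroup.centralizer X := Subgroup.pow_mem _ hg m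
    have hd : 2 ∣ Nat.card (Subgroup.zpowers (g ^ m)) := by
      rw [Nat.card_zpowers]
      have h0 : orderOf (g ^ m) ∣ 2 ^ k := orderOf_dvd_of_pow_eq_one hk
      obtain ⟨i, -, hi⟩ := (Nat.dvd_prime_pow Nat.prime_two).1 h0
      rw [hi]
      cases i with
      | zero => exact absurd (orderOf_eq_one_iff.1 (by rw [hi, pow_zero])) hne
      | succ n => exact ⟨2 ^ n, by ring⟩
    haveI : Fact (Nat.Prime 2) := ⟨Nat.prime_two⟩
    obtain ⟨⟨u, hu⟩, huo⟩ := exists_prime_orderOf_dvd_card' 2 hd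
    rw [Subgroup.orderOf_mk] at huo
    refine ⟨u, (Subgroup.zpowers_le.2 hy) hu, fun h => by simp [h] at huo, ?_⟩
    rw [← pow_two, ← huo, pow_orderOf_eq_one]
  obtain ⟨u, huC, hu1, hu2⟩ := hex
  obtain ⟨e, he⟩ := inv_fix hS hu2
  have heF : ∀ x ∈ X, x • e = e := fun x hx =>
    inv_commute_fix hS hu1 hu2 he (mem_centralizer_set.1 huC x hx)
  obtain ⟨h, hh, hha⟩ := C_trans_a hS hX h3 heF
  refine ⟨h⁻¹ * u * h, Subgroup.mul_mem _ (Subgroup.mul_mem _ (Subgroup.inv_mem _ hh) huC) hh,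
    inv_mem_Q hS ?_ ?_, ?_, ?_⟩
  · rw [mul_smul, mul_smul, hha, he, inv_smul_eq_iff.2 hha.symm]
  · rw [show h⁻¹ * u * h * (h⁻¹ * u * h) = h⁻¹ * (u * u) * h by group, hu2]; group
  · intro h'
    apply hu1
    rw [show u = h * (h⁻¹ * u * h) * h⁻¹ by group, h']; group
  · rw [show h⁻¹ * u * h * (h⁻¹ * u * h) = h⁻¹ * (u * u) * h by group, hu2]; group

theorem K_fixed_point_free {x : G}
    (hx : x ∈ Cfsg.invertedBy (stabilizer G a ⊓ stabilizer G (t • a)) t) (hx1 : x ≠ 1)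
    {c : Ω} (hc : x • c = c) : c = a ∨ c = t • a := by
  by_contra h
  push Not at h
  have hX : ({x} : Set G) ⊆ ((stabilizer G a ⊓ stabilizer G (t • a)) : Set G) := by
    intro y hy; rw [Set.mem_singleton_iff] at hy; rw [hy]; exact hx.1
  have h3 : ∃ e : Ω, e ≠ a ∧ e ≠ t • a ∧ ∀ y ∈ ({x} : Set G), y • e = e :=
    ⟨c, h.1, h.2, fun y hy => by rw [Set.mem_singleton_iff] at hy; rw [hy, hc]⟩
  obtain ⟨s, hsC, hsQ, hs1, hs2⟩ := C_involution hS hX h3
  exact hx1 (no_inverted hS (D_odd hS hx.1) hs1 hs2 (Q_fix_a hS hsQ)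
    ((mem_centralizer_set.1 hsC x rfl).symm) hS.mul_self (ba hS) hx.2)

theorem K_centralizer_Q {x : G}
    (hx : x ∈ Cfsg.invertedBy (stabilizer G a ⊓ stabilizer G (t • a)) t) (hx1 : x ≠ 1) :
    Q ⊓ Subgroup.centralizer {x} = ⊥ := by
  rw [Subgroup.eq_bot_iff_forall]
  rintro q ⟨hq, hqx⟩
  by_contra h
  have hc : x • (q • (t • a)) = q • (t • a) := by
    rw [← mul_smul, mem_centralizer_singleton'.1 hqx, mul_smul, (mem_D.1 hx.1).2]
  rcases K_fixed_point_free hS hx hx1 hc with h1 | h1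
  · exact q_smul_b_ne hS hq h1
  · exact h (Q_fix_b hS hq h1)

end CfsgLib.RankOne
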