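import Mathlib.GroupTheory.Sylow
import Mathlib.GroupTheory.Perm.Cycle.Type
import Cfsg.Agent.Lib.RankOne.Inverted

/-! In the rank-one set-up the involutions of `G_a` are central in `Q`. -/

namespace CfsgLib.RankOne

open MulAction
open scoped Pointwise

variable {G Ω : Type*} [Group G] [Finite G] [MulAction G Ω] {a : Ω} {t : G} {Q : Subgroup G}
variable (hS : Cfsg.IsRankOneSetup G Ω a t Q)
include hS

theorem exists_K_of_prime {p : ℕ} (hp : p.Prime)
    (hdvd : p ∣ Nat.card (Cfsg.invertedBy (stabilizer G a ⊓ stabilizer G (t • a)) t)) :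
    ∃ k ∈ Cfsg.invertedBy (stabilizer G a ⊓ stabilizer G (t • a)) t, k ≠ 1 ∧ orderOf k = p := by
  classical
  haveI : Fact p.Prime := ⟨hp⟩
  let D : Subgroup G := stabilizer G a ⊓ stabilizer G (t • a)
  let φ : MulAut ↥D :=
    { toFun := fun d => ⟨t * d * t, conj_t_mem' hS d.2⟩
      invFun := fun d => ⟨t * d * t, conj_t_mem' hS d.2⟩
      left_inv := fun d => Subtype.ext (by
        simp only [mul_assoc, hS.mul_self, mul_one]
        rw [← mul_assoc t t, hS.mul_self, one_mul])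
      right_inv := fun d => Subtype.ext (by
        simp only [mul_assoc, hS.mul_self, mul_one]
        rw [← mul_assoc t t, hS.mul_self, one_mul])
      map_mul' := fun d d' => Subtype.ext (by
        simp only [Subgroup.coe_mul, mul_assoc]
        rw [← mul_assoc t t, hS.mul_self, one_mul]) }
  have hφ : φ * φ = 1 := MulEquiv.ext fun d => φ.left_inv d
  let σ : Equiv.Perm (Sylow p ↥D) := MulAction.toPerm φ
  have hσ : σ ^ (2 ^ 1) = 1 := by
    refine Equiv.ext fun P => ?_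
    change φ • (φ • P) = P
    rw [← mul_smul, hφ, one_smul]
  have := Fintype.ofFinite (Sylow p ↥D)
  have hodd : ¬ 2 ∣ Fintype.card (Sylow p ↥D) := by
    intro h
    rw [← Nat.card_eq_fintype_card] at h
    obtain ⟨P⟩ : Nonempty (Sylow p ↥D) := inferInstance
    have := (h.trans (Sylow.card_dvd_index P)).trans (P : Subgroup ↥D).index_dvd_card
    obtain ⟨m, hm⟩ := hS.odd_card
    change Nat.card ↥D = 2 * m + 1 at hm
    omega
  haveI : Fact (Nat.Prime 2) := ⟨Nat.prime_two⟩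
  obtain ⟨P, hP⟩ := Equiv.Perm.exists_fixed_point_of_prime hodd hσ
  have hinv : ∀ x ∈ (P : Subgroup ↥D), φ x ∈ (P : Subgroup ↥D) := by
    intro x hx
    have h1 : φ • x ∈ φ • (P : Subgroup ↥D) := Subgroup.smul_mem_pointwise_smul x φ _ hx
    have h2 : φ • (P : Subgroup ↥D) = (P : Subgroup ↥D) := by
      have := congrArg (fun S : Sylow p ↥D => (S : Subgroup ↥D)) hP
      exact this
    rwa [h2] at h1
  have hnc : ∃ x ∈ (P : Subgroup ↥D), φ x ≠ x := by
    by_contra h
    push Not at h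
    have hle : (P : Subgroup ↥D) ≤ (D ⊓ Subgroup.centralizer {t}).subgroupOf D := by
      intro x hx
      refine ⟨x.2, mem_centralizer_singleton'.2 ?_⟩
      have e : t * (x : G) * t = x := congrArg Subtype.val (h x hx)
      calc t * (x : G) = t * x * (t * t) := by rw [hS.mul_self, mul_one]
        _ = x * t := by rw [← mul_assoc, e]
    have hmul : ((D ⊓ Subgroup.centralizer {t}).subgroupOf D).index =
        Nat.card (Cfsg.invertedBy D t) := by
      have h1 := ((D ⊓ Subgroup.centralizer {t}).subgroupOf D).card_mul_index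
      rw [Nat.card_congr (Subgroup.subgroupOfEquivOfLe
        (inf_le_left : D ⊓ Subgroup.centralizer {t} ≤ D)).toEquiv] at h1
      have h2 := card_eq_card_centralizer_mul_inverted hS.mul_self (D_norm hS) hS.odd_card
      exact mul_left_cancel₀ (Nat.card_pos (α := ↥(D ⊓ Subgroup.centralizer {t}))).ne' (h1.trans h2)
    exact P.not_dvd_index (hdvd.trans (hmul ▸ Subgroup.index_dvd_of_le hle))
  obtain ⟨x, hx, hne⟩ := hnc
  let y : ↥D := (φ x)⁻¹ * x
  have hy : y ∈ (P : Subgroup ↥D) := Subgroup.mul_mem _ (Subgroup.inv_mem _ (hinv x hx)) hx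
  have hy1 : y ≠ 1 := fun h => hne (inv_mul_eq_one.1 h)
  have hyi : φ y = y⁻¹ := by
    simp only [y, map_mul, map_inv]
    rw [show φ (φ x) = x from φ.left_inv x, mul_inv_rev, inv_inv]
  obtain ⟨n, hn⟩ := (IsPGroup.iff_orderOf.1 P.2) ⟨y, hy⟩
  rw [Subgroup.orderOf_mk] at hn
  obtain ⟨m, rfl⟩ : ∃ m, n = m + 1 := by
    cases n with
    | zero => exact absurd (orderOf_eq_one_iff.1 (by rw [hn, pow_zero])) hy1
    | succ m => exact ⟨m, rfl⟩
  have hyK : (y : G) ∈ Cfsg.invertedBy D t := by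
    refine ⟨y.2, ?_⟩
    rw [t_inv hS]
    exact congrArg Subtype.val hyi
  have hord : orderOf ((y : G) ^ (p ^ m)) = p := by
    rw [orderOf_pow, Subgroup.orderOf_coe, hn,
      Nat.gcd_eq_right (pow_dvd_pow p (Nat.le_succ m)), pow_succ', Nat.mul_div_cancel _ (pow_pos hp.pos m)]
  refine ⟨(y : G) ^ (p ^ m), ⟨D.pow_mem y.2 _, ?_⟩, fun h => ?_, hord⟩
  · rw [← conj_pow, hyK.2, inv_pow]
  · rw [h, orderOf_one] at hord; exact hp.one_lt.ne hord

theorem card_stab_eq {s : G} (hs : s ∈ Cfsg.involutionsIn (stabilizer G a : Set G)) :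
    Nat.card (stabilizer G a) =
      Nat.card ↥(stabilizer G a ⊓ Subgroup.centralizer {s}) *
        Nat.card (Cfsg.invertedBy (stabilizer G a ⊓ stabilizer G (t • a)) t) := by
  rw [← Nat.card_prod]
  refine (Nat.card_eq_of_bijective (fun p :
    ↥(stabilizer G a ⊓ Subgroup.centralizer {s}) ×
      Cfsg.invertedBy (stabilizer G a ⊓ stabilizer G (t • a)) t =>
    (⟨(p.1 : G) * p.2, Subgroup.mul_mem _ p.1.2.1 p.2.2.1.1⟩ : stabilizer G a)) ⟨?_, ?_⟩).symm
  · rintro ⟨⟨c, hc, hcs⟩, ⟨k, hk⟩⟩ ⟨⟨c', hc', hcs'⟩, ⟨k', hk'⟩⟩ h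
    have e : c * k = c' * k' := congrArg Subtype.val h
    have x1 : ∀ {c : G}, c ∈ Subgroup.centralizer {s} → c⁻¹ * s * c = s := fun {c} hc => by
      rw [mul_assoc, mem_centralizer_singleton'.1 hc, ← mul_assoc, inv_mul_cancel, one_mul]
    have hkk : k = k' := K_conj_inj hS hs hk hk' <| by
      calc k⁻¹ * s * k = k⁻¹ * (c⁻¹ * s * c) * k := by rw [x1 hcs]
        _ = (c * k)⁻¹ * s * (c * k) := by group
        _ = k'⁻¹ * (c'⁻¹ * s * c') * k' := by rw [e]; group
        _ = k'⁻¹ * s * k' := by rw [x1 hcs']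
    subst hkk
    obtain rfl := mul_right_cancel e
    rfl
  · rintro ⟨d, hd⟩
    obtain ⟨k, hk, e⟩ := K_trans hS hs (conj_inv_mem hS hs hd)
    refine ⟨(⟨d * k⁻¹, Subgroup.mul_mem _ hd (Subgroup.inv_mem _ hk.1.1), ?_⟩, ⟨k, hk⟩), ?_⟩
    · refine mem_centralizer_singleton'.2 ?_
      calc s * (d * k⁻¹) = d * (d⁻¹ * s * d) * k⁻¹ := by group
        _ = d * (k⁻¹ * s * k) * k⁻¹ := by rw [e]
        _ = d * k⁻¹ * s := by group
    · exact Subtype.ext (by simp)

theorem involution_central {s x : G} (hs : s ∈ Cfsg.involutionsIn (stabilizer G a : Set G))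
    (hx : x ∈ Q) : s * x = x * s := by
  classical
  let A : Subgroup G := stabilizer G a
  let D : Subgroup G := stabilizer G a ⊓ stabilizer G (t • a)
  let Q' : Subgroup ↥A := Q.subgroupOf A
  let C : Subgroup ↥A := (A ⊓ Subgroup.centralizer {s}).subgroupOf A
  haveI : Q'.Normal := ⟨fun n hn g => conjQ hS g.2 hn⟩
  have hQ : Nat.card ↥Q' = Nat.card Q := Nat.card_congr (Subgroup.subgroupOfEquivOfLe hS.le).toEquiv
  have hC : Nat.card ↥C = Nat.card ↥(A ⊓ Subgroup.centralizer {s}) :=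
    Nat.card_congr (Subgroup.subgroupOfEquivOfLe (inf_le_left)).toEquiv
  have hA : Nat.card ↥A = Nat.card ↥C * Nat.card (Cfsg.invertedBy D t) := by
    rw [hC]; exact card_stab_eq hS hs
  have hidxQ : Q'.index = Nat.card ↥D := by
    have h1 := Q'.card_mul_index
    rw [hQ, card_stab hS] at h1
    exact mul_left_cancel₀ Nat.card_pos.ne' h1
  have h2 : Q'.relIndex C ∣ Q'.index := Subgroup.relIndex_dvd_index_of_normal Q' C
  obtain ⟨e, he⟩ := h2
  have h3 : Nat.card ↥(Q' ⊓ C) * Q'.relIndex C = Nat.card ↥C :=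
    by rw [← Subgroup.inf_relIndex_right Q' C, ← Subgroup.relIndex_bot_left,
      ← Subgroup.relIndex_bot_left]; exact Subgroup.relIndex_mul_relIndex _ _ _ bot_le inf_le_right
  have h4 : Nat.card ↥(Q' ⊓ C) * C.relIndex Q' = Nat.card ↥Q' := by
    rw [← Subgroup.inf_relIndex_left Q' C, ← Subgroup.relIndex_bot_left,
      ← Subgroup.relIndex_bot_left]; exact Subgroup.relIndex_mul_relIndex _ _ _ bot_le inf_le_left
  have hcK : Nat.card (Cfsg.invertedBy D t) = C.relIndex Q' * e := by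
    have h5 : Nat.card ↥(Q' ⊓ C) * Q'.relIndex C * Nat.card (Cfsg.invertedBy D t) =
        Nat.card ↥(Q' ⊓ C) * Q'.relIndex C * (C.relIndex Q' * e) := by
      rw [h3, ← hA, card_stab hS, ← hQ, ← hidxQ, ← h4, he, ← h3]
      ring
    refine mul_left_cancel₀ ?_ h5
    rw [h3]
    exact Nat.card_pos.ne'
  by_cases h : Q' ≤ C
  · exact mem_centralizer_singleton'.1 (h (x := ⟨x, hS.le hx⟩) hx).2
  exfalso
  have hne : C.relIndex Q' ≠ 1 := fun h1 => h (Subgroup.relIndex_eq_one.1 h1)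
  obtain ⟨p, hp, hpc⟩ := Nat.exists_prime_and_dvd hne
  have hpQ : p ∣ Nat.card Q := hQ ▸ hpc.trans ⟨_, h4.symm.trans (mul_comm _ _)⟩
  have hpK : p ∣ Nat.card (Cfsg.invertedBy D t) := hcK ▸ hpc.mul_right e
  obtain ⟨k, hk, hk1, hko⟩ := exists_K_of_prime hS hp hpK
  have := finite_Omega hS
  have := Fintype.ofFinite Ω
  haveI : Fact p.Prime := ⟨hp⟩
  have hP : IsPGroup p (Subgroup.zpowers k) :=
    IsPGroup.of_card (n := 1) (by rw [Nat.card_zpowers, hko, pow_one])
  have hmod := hP.card_modEq_card_fixedPoints (α := Ω)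
  have hfix : Nat.card (fixedPoints (Subgroup.zpowers k) Ω) = 2 := by
    rw [show fixedPoints (Subgroup.zpowers k) Ω = ({a, t • a} : Set Ω) from ?_,
      Nat.card_coe_set_eq, Set.ncard_pair (ba hS).symm]
    ext c
    rw [mem_fixedPoints]
    constructor
    · intro hc
      exact K_fixed_point_free hS hk hk1 (hc ⟨k, Subgroup.mem_zpowers k⟩)
    · intro hc
      rintro ⟨g, hg⟩
      have hkc : k ∈ stabilizer G c := by
        rcases hc with rfl | rfl
        · exact hk.1.1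
        · exact hk.1.2
      exact (Subgroup.zpowers_le.2 hkc) hg
  rw [card_omega hS, hfix] at hmod
  have h6 : Nat.card Q + 1 ≡ 0 + 1 [MOD p] :=
    Nat.ModEq.add_right 1 (Nat.modEq_zero_iff_dvd.2 hpQ)
  have h7 : 1 ≡ 2 [MOD p] := h6.symm.trans hmod
  have := (Nat.modEq_iff_dvd' (by norm_num)).1 h7
  exact hp.one_lt.ne' (Nat.dvd_one.1 this)

end CfsgLib.RankOne
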