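import Cfsg.Agent.Lib.RankOne.InvolutionOdd

/-! A subgroup of odd order normalised by a four group is generated by the centralisers of its involutions. -/

namespace CfsgLib.RankOne

variable {M : Type*} [Group M]

theorem le_of_four_centralizers {x y : M} (hx : x * x = 1) (hy : y * y = 1) (hxy : x * y = y * x)
    {O H : Subgroup M} (hodd : Odd (Nat.card O))
    (hnx : ∀ o ∈ O, x * o * x⁻¹ ∈ O) (hny : ∀ o ∈ O, y * o * y⁻¹ ∈ O)
    (h1 : ∀ o ∈ O, x * o = o * x → o ∈ H) (h2 : ∀ o ∈ O, y * o = o * y → o ∈ H)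
    (h3 : ∀ o ∈ O, x * y * o = o * (x * y) → o ∈ H) : O ≤ H := by
  intro o ho
  obtain ⟨c, i, hc, hxc, hi, rfl⟩ := decomp hx hnx hodd ho
  refine H.mul_mem (h1 c hc hxc) ?_
  obtain ⟨c', i', hc', hyc', hi', he⟩ := decomp hy hny hodd hi.1
  have xi : x⁻¹ = x := inv_eq_of_mul_eq_one_right hx
  have yi : y⁻¹ = y := inv_eq_of_mul_eq_one_right hy
  have c1 : y * c' * y⁻¹ = c' := by rw [hyc', mul_inv_cancel_right]
  -- the image of the decomposition of `i` under `x` is the one of `i⁻¹`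
  have hcX : x * c' * x⁻¹ ∈ O := hnx _ hc'
  have hiX : x * i' * x⁻¹ ∈ O := hnx _ hi'.1
  have swap : ∀ w : M, y * (x * w * x⁻¹) * y⁻¹ = x * (y * w * y⁻¹) * x⁻¹ := fun w => by
    calc y * (x * w * x⁻¹) * y⁻¹ = (y * x) * w * (y * x)⁻¹ := by group
      _ = (x * y) * w * (x * y)⁻¹ := by rw [hxy]
      _ = _ := by group
  have hA : x * c' * x⁻¹ = c'⁻¹ ∧ x * i' * x⁻¹ = c' * i'⁻¹ * c'⁻¹ := by
    refine decomp_unique (t := y) hodd ?_ ⟨hiX, ?_⟩ ?_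
      ⟨O.mul_mem (O.mul_mem hc' (O.inv_mem hi'.1)) (O.inv_mem hc'), ?_⟩ ?_
    · have := swap c'
      rw [c1] at this
      exact mul_inv_eq_iff_eq_mul.1 this
    · rw [swap, hi'.2]; group
    · exact (Commute.inv_right (show Commute y c' from hyc')).eq
    · calc y * (c' * i'⁻¹ * c'⁻¹) * y⁻¹ = (y * c' * y⁻¹) * (y * i' * y⁻¹)⁻¹ * (y * c' * y⁻¹)⁻¹ := by
            group
        _ = (c' * i'⁻¹ * c'⁻¹)⁻¹ := by rw [c1, hi'.2]; group
    · calc x * c' * x⁻¹ * (x * i' * x⁻¹) = x * (c' * i') * x⁻¹ := by group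
        _ = (c' * i')⁻¹ := by rw [← he, hi.2]
        _ = c'⁻¹ * (c' * i'⁻¹ * c'⁻¹) := by group
  set z := x * y with hz
  have hzc : z * c' * z⁻¹ = c'⁻¹ := by
    rw [hz, show x * y * c' * (x * y)⁻¹ = x * (y * c' * y⁻¹) * x⁻¹ by group, c1, hA.1]
  have hzi : z * i' * z⁻¹ = c' * i' * c'⁻¹ := by
    rw [hz, show x * y * i' * (x * y)⁻¹ = x * (y * i' * y⁻¹) * x⁻¹ by group, hi'.2,
      show x * i'⁻¹ * x⁻¹ = (x * i' * x⁻¹)⁻¹ by group, hA.2]
    group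
  set l := oddRoot O c' with hl
  have hlO : l ∈ O := oddRoot_mem hc'
  have hl2 : l * l = c' := oddRoot_sq hodd hc'
  have hlH : l ∈ H := h2 l hlO (((show Commute y c' from hyc')).pow_right _).eq
  have hzl : z * l * z⁻¹ = l⁻¹ := (oddRoot_inverted (X := O) (t := z) ⟨hc', hzc⟩).2
  have hw : z * (l * i' * l⁻¹) * z⁻¹ = l * i' * l⁻¹ := by
    calc z * (l * i' * l⁻¹) * z⁻¹ = (z * l * z⁻¹) * (z * i' * z⁻¹) * (z * l * z⁻¹)⁻¹ := by group
      _ = l⁻¹ * ((l * l) * i' * (l * l)⁻¹) * l := by rw [hzl, hzi, hl2, inv_inv]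
      _ = l * i' * l⁻¹ := by group
  have hwH : l * i' * l⁻¹ ∈ H :=
    h3 _ (O.mul_mem (O.mul_mem hlO hi'.1) (O.inv_mem hlO)) (mul_inv_eq_iff_eq_mul.1 hw)
  rw [he]
  refine H.mul_mem (h2 c' hc' hyc') ?_
  have : i' = l⁻¹ * (l * i' * l⁻¹) * l := by group
  rw [this]
  exact H.mul_mem (H.mul_mem (H.inv_mem hlH) hwH) hlH

end CfsgLib.RankOne
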