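import Mathlib.GroupTheory.OrderOfElement
import Mathlib.GroupTheory.Index
import Mathlib.GroupTheory.GroupAction.Defs
import Mathlib.Algebra.Group.Subgroup.Pointwise
import Mathlib.Tactic
import Cfsg.Prelude.Def_LieRecognition

/-! An involution normalising a subgroup of odd order. -/

namespace CfsgLib.RankOne

variable {M : Type*} [Group M]

/-- the square root inside a subgroup of odd order -/
noncomputable def oddRoot (X : Subgroup M) (y : M) : M := y ^ ((Nat.card X + 1) / 2)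

variable {X : Subgroup M}

theorem oddRoot_mem {y : M} (hy : y ∈ X) : oddRoot X y ∈ X := X.pow_mem hy _

theorem pow_card_of_mem {y : M} (hy : y ∈ X) : y ^ Nat.card X = 1 := by
  have h : (⟨y, hy⟩ : X) ^ Nat.card X = 1 := pow_card_eq_one'
  have h' := congrArg Subtype.val h
  simpa only [SubgroupClass.coe_pow, OneMemClass.coe_one] using h'

theorem oddRoot_sq (hodd : Odd (Nat.card X)) {y : M} (hy : y ∈ X) :
    oddRoot X y * oddRoot X y = y := by
  obtain ⟨m, hm⟩ := hodd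
  have h1 := pow_card_of_mem hy
  rw [hm, pow_succ] at h1
  simp only [oddRoot, hm, ← pow_add]
  have h2 : (2 * m + 1 + 1) / 2 + (2 * m + 1 + 1) / 2 = (2 * m + 1) + 1 := by omega
  rw [h2, pow_succ, pow_succ, h1, one_mul]

theorem oddRoot_unique (hodd : Odd (Nat.card X)) {y : M} (hy : y ∈ X) :
    oddRoot X (y * y) = y := by
  have h := oddRoot_sq hodd hy
  simp only [oddRoot, ← pow_add] at h ⊢
  rw [show y * y = y ^ 2 by rw [pow_two], ← pow_mul, two_mul, h]

theorem eq_of_sq_eq (hodd : Odd (Nat.card X)) {y z : M} (hy : y ∈ X) (hz : z ∈ X)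
    (h : y * y = z * z) : y = z := by
  rw [← oddRoot_unique hodd hy, h, oddRoot_unique hodd hz]

theorem eq_one_of_sq (hodd : Odd (Nat.card X)) {y : M} (hy : y ∈ X) (h : y * y = 1) : y = 1 :=
  eq_of_sq_eq hodd hy X.one_mem (by rw [h, one_mul])

theorem mem_invertedBy_iff {t x : M} :
    x ∈ Cfsg.invertedBy X t ↔ x ∈ X ∧ t * x * t⁻¹ = x⁻¹ := Iff.rfl

theorem oddRoot_inverted {t y : M} (hy : y ∈ Cfsg.invertedBy X t) :
    oddRoot X y ∈ Cfsg.invertedBy X t := by
  refine ⟨oddRoot_mem hy.1, ?_⟩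
  rw [oddRoot, ← conj_pow, hy.2, inv_pow]

theorem invertedBy_inv {t y : M} (hy : y ∈ Cfsg.invertedBy X t) :
    y⁻¹ ∈ Cfsg.invertedBy X t := by
  refine ⟨X.inv_mem hy.1, ?_⟩
  have h : t * y⁻¹ * t⁻¹ = (t * y * t⁻¹)⁻¹ := by group
  rw [h, hy.2]

theorem decomp {t : M} (htt : t * t = 1) (hnorm : ∀ x ∈ X, t * x * t⁻¹ ∈ X)
    (hodd : Odd (Nat.card X)) {x : M} (hx : x ∈ X) :
    ∃ c i : M, c ∈ X ∧ t * c = c * t ∧ i ∈ Cfsg.invertedBy X t ∧ x = c * i := by
  have ti : t⁻¹ = t := inv_eq_of_mul_eq_one_right htt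
  have ht' : t * x * t ∈ X := by simpa [ti] using hnorm x hx
  set y := (t * x * t)⁻¹ * x with hydef
  have hy : y ∈ X := X.mul_mem (X.inv_mem ht') hx
  have hyi : y ∈ Cfsg.invertedBy X t := by
    refine ⟨hy, ?_⟩
    simp only [hydef, mul_inv_rev, inv_inv, ti, mul_assoc]
    simp only [← mul_assoc t t, htt, one_mul, mul_one]
  have hi := oddRoot_inverted hyi
  set i := oddRoot X y
  have hsq : i * i = y := oddRoot_sq hodd hy
  refine ⟨x * i⁻¹, i, X.mul_mem hx (X.inv_mem hi.1), ?_, hi, by group⟩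
  have h1 : t * i⁻¹ * t = i := by
    have h := (invertedBy_inv hi).2
    rwa [inv_inv, ti] at h
  have hx2 : t * x * t = x * y⁻¹ := by rw [hydef]; group
  have : t * (x * i⁻¹) * t = x * i⁻¹ := by
    calc t * (x * i⁻¹) * t = (t * x * t) * (t * i⁻¹ * t) := by
          simp only [mul_assoc]; simp only [← mul_assoc t t, htt, one_mul]
      _ = x * i⁻¹ := by rw [hx2, h1, ← hsq]; group
  calc t * (x * i⁻¹) = t * (x * i⁻¹) * t * t := by simp only [mul_assoc, htt, mul_one]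
    _ = x * i⁻¹ * t := by rw [this]

theorem decomp_unique {t : M} (hodd : Odd (Nat.card X)) {c i c' i' : M}
    (htc : t * c = c * t) (hi : i ∈ Cfsg.invertedBy X t)
    (htc' : t * c' = c' * t) (hi' : i' ∈ Cfsg.invertedBy X t) (h : c * i = c' * i') :
    c = c' ∧ i = i' := by
  have h1 : t * c * t⁻¹ = c := by rw [htc]; group
  have h1' : t * c' * t⁻¹ = c' := by rw [htc']; group
  have h3 : c * i⁻¹ = c' * i'⁻¹ := by
    have := congrArg (fun z => t * z * t⁻¹) h
    rwa [show t * (c * i) * t⁻¹ = (t * c * t⁻¹) * (t * i * t⁻¹) by group,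
      show t * (c' * i') * t⁻¹ = (t * c' * t⁻¹) * (t * i' * t⁻¹) by group, h1, h1', hi.2, hi'.2] at this
  have h4 : i * i = i' * i' := by
    have e : (c * i⁻¹)⁻¹ * (c * i) = (c' * i'⁻¹)⁻¹ * (c' * i') := by rw [h, h3]
    simpa [mul_assoc] using e
  have hii := eq_of_sq_eq hodd hi.1 hi'.1 h4
  subst hii
  exact ⟨mul_right_cancel h, rfl⟩

theorem mem_centralizer_singleton' {t c : M} :
    c ∈ Subgroup.centralizer ({t} : Set M) ↔ t * c = c * t := by
  simp [Subgroup.mem_centralizer_iff]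

theorem card_eq_card_centralizer_mul_inverted {t : M} (htt : t * t = 1)
    (hnorm : ∀ x ∈ X, t * x * t⁻¹ ∈ X) (hodd : Odd (Nat.card X)) :
    Nat.card X = Nat.card ↥(X ⊓ Subgroup.centralizer {t}) * Nat.card (Cfsg.invertedBy X t) := by
  rw [← Nat.card_prod]
  refine (Nat.card_eq_of_bijective
    (fun p : ↥(X ⊓ Subgroup.centralizer {t}) × Cfsg.invertedBy X t =>
      (⟨(p.1 : M) * (p.2 : M), X.mul_mem p.1.2.1 p.2.2.1⟩ : X)) ⟨?_, ?_⟩).symm
  · rintro ⟨⟨c, hc⟩, ⟨i, hi⟩⟩ ⟨⟨c', hc'⟩, ⟨i', hi'⟩⟩ h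
    have h' : c * i = c' * i' := congrArg Subtype.val h
    obtain ⟨rfl, rfl⟩ := decomp_unique hodd (mem_centralizer_singleton'.1 hc.2) hi
      (mem_centralizer_singleton'.1 hc'.2) hi' h'
    rfl
  · rintro ⟨x, hx⟩
    obtain ⟨c, i, hc, htc, hi, rfl⟩ := decomp htt hnorm hodd hx
    exact ⟨(⟨c, hc, mem_centralizer_singleton'.2 htc⟩, ⟨i, hi⟩), rfl⟩

end CfsgLib.RankOne
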