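import Mathlib.GroupTheory.GroupAction.MultipleTransitivity
import Mathlib.GroupTheory.Perm.Cycle.Type
import Mathlib.GroupTheory.PGroup
import Mathlib.Tactic
import Cfsg.Agent.Lib.RankOne.InvolutionOdd

/-! Basic facts about the split rank-one set-up. -/

namespace CfsgLib.RankOne

open MulAction

variable {G Ω : Type*} [Group G] [MulAction G Ω] {a : Ω} {t : G} {Q : Subgroup G}

theorem mem_D {g : G} : g ∈ stabilizer G a ⊓ stabilizer G (t • a) ↔ g • a = a ∧ g • (t • a) = t • a := by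
  simp [Subgroup.mem_inf]

variable (hS : Cfsg.IsRankOneSetup G Ω a t Q)
include hS

theorem t_inv : t⁻¹ = t := inv_eq_of_mul_eq_one_right hS.mul_self

theorem tb : t • (t • a) = a := by rw [← mul_smul, hS.mul_self, one_smul]

theorem ba : t • a ≠ a := fun h => hS.not_mem (mem_stabilizer_iff.2 h)

theorem two_pre {x y z w : Ω} (h1 : x ≠ y) (h2 : z ≠ w) : ∃ g : G, g • x = z ∧ g • y = w :=
  (is_two_pretransitive_iff.1 hS.two_transitive) h1 h2

theorem Q_fix_a {q : G} (hq : q ∈ Q) : q • a = a := hS.le hq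

theorem Q_fix_b {q : G} (hq : q ∈ Q) (h : q • (t • a) = t • a) : q = 1 := by
  have : q ∈ Q ⊓ stabilizer G (t • a) := ⟨hq, h⟩
  rwa [hS.inf_eq_bot, Subgroup.mem_bot] at this

theorem conjQ {g q : G} (hg : g • a = a) (hq : q ∈ Q) : g * q * g⁻¹ ∈ Q :=
  hS.conj_mem g hg q hq

theorem conjQ' {g q : G} (hg : g • a = a) (hq : q ∈ Q) : g⁻¹ * q * g ∈ Q := by
  have := hS.conj_mem g⁻¹ ((stabilizer G a).inv_mem hg) q hq
  rwa [inv_inv] at this

theorem exists_qd {g : G} (hg : g • a = a) :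
    ∃ q ∈ Q, ∃ d ∈ stabilizer G a ⊓ stabilizer G (t • a), g = q * d := by
  have hle : stabilizer G a ⊓ stabilizer G (t • a) ≤ Subgroup.normalizer (Q : Set G) := by
    intro d hd
    rw [Subgroup.mem_normalizer_iff]
    refine fun n => ⟨fun hn => conjQ hS hd.1 hn, fun hn => ?_⟩
    have h := conjQ' hS hd.1 hn
    rwa [show d⁻¹ * (d * n * d⁻¹) * d = n by group] at h
  have : g ∈ ((Q ⊔ (stabilizer G a ⊓ stabilizer G (t • a)) : Subgroup G) : Set G) := by
    rw [hS.sup_eq]; exact hg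
  rw [Subgroup.coe_mul_of_right_le_normalizer_left _ _ hle] at this
  obtain ⟨q, hq, d, hd, rfl⟩ := this
  exact ⟨q, hq, d, hd, rfl⟩

theorem qd_unique {q q' d d' : G} (hq : q ∈ Q) (hq' : q' ∈ Q) (hd : d • (t • a) = t • a)
    (hd' : d' • (t • a) = t • a) (h : q * d = q' * d') : q = q' ∧ d = d' := by
  have h1 : q • (t • a) = q' • (t • a) := by
    have e := congrArg (fun g : G => g • (t • a)) h
    simpa only [mul_smul, hd, hd'] using e
  have h2 : q'⁻¹ * q = 1 := Q_fix_b hS (Q.mul_mem (Q.inv_mem hq') hq)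
    (by rw [mul_smul, h1, inv_smul_smul])
  have hqq := (inv_mul_eq_one.1 h2).symm
  subst hqq
  exact ⟨rfl, mul_left_cancel h⟩

theorem exists_q {c : Ω} (hc : c ≠ a) : ∃ q ∈ Q, q • (t • a) = c := by
  obtain ⟨g, hga, hgb⟩ := two_pre hS (ba hS).symm hc.symm
  obtain ⟨q, hq, d, hd, rfl⟩ := exists_qd hS hga
  refine ⟨q, hq, ?_⟩
  rwa [mul_smul, (mem_D.1 hd).2] at hgb

theorem q_unique {q q' : G} (hq : q ∈ Q) (hq' : q' ∈ Q) (h : q • (t • a) = q' • (t • a)) :
    q = q' := by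
  have h2 : q'⁻¹ * q = 1 := Q_fix_b hS (Q.mul_mem (Q.inv_mem hq') hq)
    (by rw [mul_smul, h, inv_smul_smul])
  exact (inv_mul_eq_one.1 h2).symm

theorem q_smul_b_ne {q : G} (hq : q ∈ Q) : q • (t • a) ≠ a := fun h =>
  ba hS (smul_left_cancel q (h.trans (Q_fix_a hS hq).symm))

theorem Q_fix_only {q : G} (hq : q ∈ Q) (h1 : q ≠ 1) {c : Ω} (hc : q • c = c) : c = a := by
  by_contra hne
  obtain ⟨p, hp, rfl⟩ := exists_q hS hne
  have h2 : p⁻¹ * q * p = 1 := Q_fix_b hS (conjQ' hS (Q_fix_a hS hp) hq)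
    (by rw [mul_smul, mul_smul, hc, inv_smul_smul])
  have e : q = p * (p⁻¹ * q * p) * p⁻¹ := by group
  rw [h2, mul_one, mul_inv_cancel] at e
  exact h1 e

theorem conj_t_mem {d : G} (hd : d ∈ stabilizer G a ⊓ stabilizer G (t • a)) :
    t * d * t⁻¹ ∈ stabilizer G a ⊓ stabilizer G (t • a) := by
  rw [t_inv hS, mem_D]
  rw [mem_D] at hd
  refine ⟨?_, ?_⟩
  · rw [mul_smul, mul_smul, hd.2, tb hS]
  · rw [mul_smul, mul_smul, tb hS, hd.1]

theorem conj_t_mem' {d : G} (hd : d ∈ stabilizer G a ⊓ stabilizer G (t • a)) :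
    t * d * t ∈ stabilizer G a ⊓ stabilizer G (t • a) := by
  have := conj_t_mem hS hd
  rwa [t_inv hS] at this

variable [Finite G]

theorem finite_Omega : Finite Ω := by
  refine Finite.of_surjective (fun g : G => g • a) fun c => ?_
  by_cases h : c = a
  · exact ⟨1, by simp [h]⟩
  · obtain ⟨g, h1, _⟩ := two_pre hS (ba hS).symm h
    exact ⟨g, h1⟩

theorem exists_smul_eq' (c : Ω) : ∃ g : G, g • a = c := by
  by_cases h : c = a
  · exact ⟨1, by simp [h]⟩
  · obtain ⟨g, h1, _⟩ := two_pre hS (ba hS).symm h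
    exact ⟨g, h1⟩

theorem card_omega : Nat.card Ω = Nat.card Q + 1 := by
  classical
  have := finite_Omega hS
  let f : Option Q → Ω := fun o => o.elim a (fun q => (q : G) • (t • a))
  have hf : Function.Bijective f := by
    constructor
    · rintro (_ | x) (_ | y) h
      · rfl
      · exact absurd h.symm (q_smul_b_ne hS y.2)
      · exact absurd h (q_smul_b_ne hS x.2)
      · exact congrArg some (Subtype.ext (q_unique hS x.2 y.2 h))
    · intro c
      by_cases hc : c = a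
      · exact ⟨none, hc.symm⟩
      · obtain ⟨q, hq, rfl⟩ := exists_q hS hc
        exact ⟨some ⟨q, hq⟩, rfl⟩
  rw [← Nat.card_eq_of_bijective f hf, Finite.card_option]

theorem card_stab : Nat.card (stabilizer G a) =
    Nat.card Q * Nat.card ↥(stabilizer G a ⊓ stabilizer G (t • a)) := by
  rw [← Nat.card_prod]
  refine (Nat.card_eq_of_bijective
    (fun p : Q × ↥(stabilizer G a ⊓ stabilizer G (t • a)) =>
      (⟨(p.1 : G) * (p.2 : G), (stabilizer G a).mul_mem (hS.le p.1.2) p.2.2.1⟩ : stabilizer G a))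
    ⟨?_, ?_⟩).symm
  · rintro ⟨⟨q, hq⟩, ⟨d, hd⟩⟩ ⟨⟨q', hq'⟩, ⟨d', hd'⟩⟩ h
    obtain ⟨rfl, rfl⟩ := qd_unique hS hq hq' hd.2 hd'.2 (congrArg Subtype.val h)
    rfl
  · rintro ⟨g, hg⟩
    obtain ⟨q, hq, d, hd, rfl⟩ := exists_qd hS hg
    exact ⟨(⟨q, hq⟩, ⟨d, hd⟩), rfl⟩

theorem card_group : Nat.card G =
    Nat.card Q * Nat.card ↥(stabilizer G a ⊓ stabilizer G (t • a)) * (Nat.card Q + 1) := by
  have hp : IsPretransitive G Ω := ⟨fun x y => by
    obtain ⟨g, rfl⟩ := exists_smul_eq' hS x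
    obtain ⟨h, rfl⟩ := exists_smul_eq' hS y
    exact ⟨h * g⁻¹, by rw [mul_smul, inv_smul_smul]⟩⟩
  rw [← card_omega hS, ← index_stabilizer_of_transitive G a, ← card_stab hS]
  exact ((stabilizer G a).card_mul_index).symm

theorem pow_stab {g : G} (hg : g • a = a) (n : ℕ) : (g ^ n) • a = a :=
  (stabilizer G a).pow_mem hg n

theorem pow_qd {q d : G} (hq : q ∈ Q) (hd : d • a = a) (n : ℕ) :
    ∃ q' ∈ Q, (q * d) ^ n = q' * d ^ n := by
  induction n with
  | zero => exact ⟨1, Q.one_mem, by simp⟩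
  | succ n ih =>
    obtain ⟨q', hq', e⟩ := ih
    refine ⟨q' * (d ^ n * q * (d ^ n)⁻¹), Q.mul_mem hq' (conjQ hS (pow_stab hS hd n) hq), ?_⟩
    rw [pow_succ, e, pow_succ]; group

theorem two_elt_mem_Q {g : G} (hg : g • a = a) {k : ℕ} (hk : g ^ (2 ^ k) = 1) : g ∈ Q := by
  obtain ⟨q, hq, d, hd, rfl⟩ := exists_qd hS hg
  obtain ⟨q', hq', e⟩ := pow_qd hS hq hd.1 (2 ^ k)
  have hdk : d ^ (2 ^ k) ∈ stabilizer G (t • a) := (stabilizer G (t • a)).pow_mem hd.2 _
  obtain ⟨-, h1⟩ := qd_unique hS hq' Q.one_mem hdk (one_smul G (t • a))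
    (by rw [← e, hk, one_mul])
  have ho := hS.odd_card
  have h2 : orderOf d ∣ Nat.card ↥(stabilizer G a ⊓ stabilizer G (t • a)) :=
    Subgroup.orderOf_dvd_natCard _ hd
  have h3 : orderOf d ∣ 2 ^ k := orderOf_dvd_of_pow_eq_one h1
  have h4 : (2 ^ k).Coprime (Nat.card ↥(stabilizer G a ⊓ stabilizer G (t • a))) :=
    Nat.Coprime.pow_left k (Nat.coprime_two_left.2 ho)
  have h5 : orderOf d = 1 := Nat.eq_one_of_dvd_coprimes h4 h3 h2
  rw [orderOf_eq_one_iff.1 h5, mul_one]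
  exact hq

theorem inv_mem_Q {g : G} (hg : g • a = a) (h2 : g * g = 1) : g ∈ Q :=
  two_elt_mem_Q hS hg (k := 1) (by rw [pow_one, pow_two, h2])

theorem exists_involution_Q : ∃ s ∈ Q, s ≠ 1 ∧ s * s = 1 := by
  obtain ⟨⟨s, hs⟩, h⟩ := exists_prime_orderOf_dvd_card' (G := Q) 2
    (even_iff_two_dvd.1 hS.even_card)
  rw [Subgroup.orderOf_mk] at h
  refine ⟨s, hs, fun h1 => ?_, ?_⟩
  · simp [h1] at h
  · rw [← pow_two, ← h, pow_orderOf_eq_one]

/-- every 2-element fixes a point -/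
theorem two_elt_fix {g : G} {k : ℕ} (hk : g ^ (2 ^ k) = 1) : ∃ e : Ω, g • e = e := by
  classical
  have := finite_Omega hS
  have := Fintype.ofFinite Ω
  haveI : Fact (Nat.Prime 2) := ⟨Nat.prime_two⟩
  let σ : Equiv.Perm Ω := toPerm g
  have hodd : ¬ 2 ∣ Fintype.card Ω := by
    rw [← Nat.card_eq_fintype_card, card_omega hS]
    obtain ⟨m, hm⟩ := hS.even_card
    omega
  have hσ : σ ^ (2 ^ k) = 1 := by
    change (toPermHom G Ω g) ^ (2 ^ k) = 1
    rw [← map_pow, hk, map_one]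
  obtain ⟨e, he⟩ := Equiv.Perm.exists_fixed_point_of_prime hodd hσ
  exact ⟨e, he⟩

theorem two_elt_fix_unique {g : G} (h1 : g ≠ 1) {k : ℕ} (hk : g ^ (2 ^ k) = 1) {c e : Ω}
    (hc : g • c = c) (he : g • e = e) : c = e := by
  obtain ⟨h, rfl⟩ := exists_smul_eq' hS e
  have ha : (h⁻¹ * g * h) • a = a := by rw [mul_smul, mul_smul, he, inv_smul_smul]
  have hk' : (h⁻¹ * g * h) ^ (2 ^ k) = 1 := by
    have : h⁻¹ * g * h = h⁻¹ * g * h⁻¹⁻¹ := by group
    rw [this, conj_pow, hk]; group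
  have hne : h⁻¹ * g * h ≠ 1 := fun e => h1 (by
    have : g = h * (h⁻¹ * g * h) * h⁻¹ := by group
    rw [this, e]; group)
  have := Q_fix_only hS (two_elt_mem_Q hS ha hk') hne (c := h⁻¹ • c)
    (by rw [mul_smul, mul_smul, smul_inv_smul, hc])
  rw [← this, smul_inv_smul]

theorem inv_fix {g : G} (h2 : g * g = 1) : ∃ e : Ω, g • e = e :=
  two_elt_fix hS (k := 1) (by rw [pow_one, pow_two, h2])

theorem inv_fix_unique {g : G} (h1 : g ≠ 1) (h2 : g * g = 1) {c e : Ω} (hc : g • c = c)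
    (he : g • e = e) : c = e :=
  two_elt_fix_unique hS h1 (k := 1) (by rw [pow_one, pow_two, h2]) hc he

omit hS in
theorem smul_fixed_of_commute {g x : G} {e : Ω} (hcomm : x * g = g * x)
    (he : g • e = e) (huniq : ∀ c, g • c = c → c = e) : x • e = e :=
  huniq _ (by rw [← mul_smul, ← hcomm, mul_smul, he])

theorem inv_commute_fix {u x : G} (h1 : u ≠ 1) (h2 : u * u = 1) {e : Ω} (he : u • e = e)
    (hcomm : x * u = u * x) : x • e = e :=
  smul_fixed_of_commute hcomm he fun _ hc => inv_fix_unique hS h1 h2 hc he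

/-- product of involutions with distinct fixed points has odd order -/
theorem odd_orderOf_mul {u w : G} {e f : Ω} (hu1 : u ≠ 1) (hu : u * u = 1) (hw1 : w ≠ 1)
    (hw : w * w = 1) (he : u • e = e) (hf : w • f = f) (hef : e ≠ f) :
    Odd (orderOf (u * w)) := by
  rcases Nat.even_or_odd (orderOf (u * w)) with hev | hodd
  swap
  · exact hodd
  exfalso
  obtain ⟨m, hm⟩ := hev
  have hpos : 0 < orderOf (u * w) := orderOf_pos _
  have hz2 : (u * w) ^ m * (u * w) ^ m = 1 := by rw [← pow_add, ← hm, pow_orderOf_eq_one]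
  have hz1 : (u * w) ^ m ≠ 1 := fun h => by
    have := Nat.le_of_dvd (by omega) (orderOf_dvd_of_pow_eq_one h)
    omega
  have hui : u⁻¹ = u := inv_eq_of_mul_eq_one_right hu
  have hwi : w⁻¹ = w := inv_eq_of_mul_eq_one_right hw
  have hzi : ((u * w) ^ m)⁻¹ = (u * w) ^ m := inv_eq_of_mul_eq_one_right hz2
  have hcu : u * (u * w) ^ m * u⁻¹ = (u * w) ^ m := by
    rw [← conj_pow]
    conv_rhs => rw [← hzi, ← inv_pow, mul_inv_rev, hwi, hui]
    congr 1
    rw [hui, ← mul_assoc, hu, one_mul]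
  have hcw : w * (u * w) ^ m * w⁻¹ = (u * w) ^ m := by
    rw [← conj_pow]
    conv_rhs => rw [← hzi, ← inv_pow, mul_inv_rev, hwi, hui]
    congr 1
    rw [hwi, mul_assoc, mul_assoc, hw, mul_one]
  obtain ⟨z, hz⟩ := inv_fix hS hz2
  have h1 := inv_commute_fix hS hz1 hz2 hz (mul_inv_eq_iff_eq_mul.1 hcu)
  have h2 := inv_commute_fix hS hz1 hz2 hz (mul_inv_eq_iff_eq_mul.1 hcw)
  exact hef ((inv_fix_unique hS hu1 hu he h1).trans (inv_fix_unique hS hw1 hw h2 hf))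

omit hS [MulAction G Ω] in
theorem conj_of_odd {u w : G} (hu : u * u = 1) (hw : w * w = 1) (ho : Odd (orderOf (u * w))) :
    ∃ n : ℕ, (u * w) ^ n * u * ((u * w) ^ n)⁻¹ = w := by
  obtain ⟨m, hm⟩ := ho
  refine ⟨m, ?_⟩
  have hui : u⁻¹ = u := inv_eq_of_mul_eq_one_right hu
  have hwi : w⁻¹ = w := inv_eq_of_mul_eq_one_right hw
  have hflip : u * ((u * w) ^ m)⁻¹ = (u * w) ^ m * u := by
    have : u * ((u * w) ^ m)⁻¹ * u⁻¹ = (u * w) ^ m := by
      rw [← inv_pow, ← conj_pow]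
      congr 1
      rw [mul_inv_rev, hwi, hui, mul_assoc, mul_assoc, hu, mul_one]
    exact mul_inv_eq_iff_eq_mul.1 this
  have hone := pow_orderOf_eq_one (u * w)
  rw [hm, pow_succ, two_mul, pow_add] at hone
  calc (u * w) ^ m * u * ((u * w) ^ m)⁻¹ = (u * w) ^ m * (u * w) ^ m * u := by
        rw [mul_assoc, hflip, ← mul_assoc]
    _ = (u * w)⁻¹ * u := by rw [eq_inv_of_mul_eq_one_left hone]
    _ = w := by rw [mul_inv_rev, hwi, hui, mul_assoc, hu, mul_one]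

/-- in a subgroup with two involutions with distinct fixed points, any two involutions are conjugate -/
theorem conj_in_subgroup {H : Subgroup G} {u w : G} {e f : Ω} (huH : u ∈ H) (hwH : w ∈ H)
    (hu1 : u ≠ 1) (hu : u * u = 1) (hw1 : w ≠ 1)
    (hw : w * w = 1) (he : u • e = e) (hf : w • f = f) (hef : e ≠ f) {v : G} (hvH : v ∈ H)
    (hv1 : v ≠ 1) (hv : v * v = 1) : ∃ g ∈ H, g * u * g⁻¹ = v := by
  have key : ∀ {x y : G} {p q : Ω}, x ∈ H → y ∈ H → x ≠ 1 → x * x = 1 → y ≠ 1 → y * y = 1 →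
      x • p = p → y • q = q → p ≠ q → ∃ g ∈ H, g * x * g⁻¹ = y := by
    intro x y p q hx hy x1 x2 y1 y2 hp hq hpq
    obtain ⟨n, hn⟩ := conj_of_odd x2 y2 (odd_orderOf_mul hS x1 x2 y1 y2 hp hq hpq)
    exact ⟨_, H.pow_mem (H.mul_mem hx hy) n, hn⟩
  obtain ⟨p, hp⟩ := inv_fix hS hv
  by_cases h : e = p
  · obtain ⟨g1, hg1, e1⟩ := key huH hwH hu1 hu hw1 hw he hf hef
    obtain ⟨g2, hg2, e2⟩ := key hwH hvH hw1 hw hv1 hv hf hp (h ▸ Ne.symm hef)
    exact ⟨g2 * g1, H.mul_mem hg2 hg1, by rw [← e2, ← e1]; group⟩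
  · exact key huH hvH hu1 hu hv1 hv he hp h

theorem exists_fix_t : ∃ c : Ω, t • c = c ∧ c ≠ a ∧ c ≠ t • a := by
  obtain ⟨c, hc⟩ := inv_fix hS hS.mul_self
  refine ⟨c, hc, fun h => ba hS (h ▸ hc), fun h => ba hS ?_⟩
  rw [h, tb hS] at hc
  exact hc.symm

theorem involutions_conj {u v : G} (hu1 : u ≠ 1) (hu : u * u = 1) (hv1 : v ≠ 1)
    (hv : v * v = 1) : ∃ g : G, g * u * g⁻¹ = v := by
  obtain ⟨s, hs, hs1, hs2⟩ := exists_involution_Q hS
  obtain ⟨c, hc, hca, _⟩ := exists_fix_t hS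
  obtain ⟨g1, _, e1⟩ := conj_in_subgroup hS (H := ⊤) (Subgroup.mem_top t) (Subgroup.mem_top s)
    hS.ne_one hS.mul_self hs1 hs2 hc (Q_fix_a hS hs) hca (Subgroup.mem_top u) hu1 hu
  obtain ⟨g2, _, e2⟩ := conj_in_subgroup hS (H := ⊤) (Subgroup.mem_top t) (Subgroup.mem_top s)
    hS.ne_one hS.mul_self hs1 hs2 hc (Q_fix_a hS hs) hca (Subgroup.mem_top v) hv1 hv
  exact ⟨g2 * g1⁻¹, by rw [← e1, ← e2]; group⟩

/-- an element of odd order centralised by an involution fixing `e` and inverted by one moving `e` -/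
theorem no_inverted {d s v : G} {e : Ω} (hd : Odd (orderOf d)) (hs1 : s ≠ 1) (hs : s * s = 1)
    (he : s • e = e) (hsd : s * d = d * s) (hv : v * v = 1) (hve : v • e ≠ e)
    (hvd : v * d * v⁻¹ = d⁻¹) : d = 1 := by
  have hv1 : v ≠ 1 := fun h => hve (by rw [h, one_smul])
  obtain ⟨f, hf⟩ := inv_fix hS hv
  have hef : e ≠ f := fun h => hve (h ▸ hf)
  let H : Subgroup G := Subgroup.normalizer (Subgroup.zpowers d : Set G)
  have hsH : s ∈ H := by
    rw [Subgroup.mem_normalizer_iff_map_conj_eq, MonoidHom.map_zpowers]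
    simp only [MulEquiv.coe_toMonoidHom, MonoidHom.coe_coe, MulAut.conj_apply]
    rw [hsd, mul_inv_cancel_right]
  have hvH : v ∈ H := by
    rw [Subgroup.mem_normalizer_iff_map_conj_eq, MonoidHom.map_zpowers]
    simp only [MulEquiv.coe_toMonoidHom, MonoidHom.coe_coe, MulAut.conj_apply]
    rw [hvd, Subgroup.zpowers_inv]
  obtain ⟨g, hg, hgs⟩ := conj_in_subgroup hS hsH hvH hs1 hs hv1 hv he hf hef hvH hv1 hv
  have hmem : g⁻¹ * d * g ∈ Subgroup.zpowers d :=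
    (Subgroup.mem_normalizer_iff''.1 hg d).1 (Subgroup.mem_zpowers d)
  obtain ⟨n, hn⟩ := Subgroup.mem_zpowers_iff.1 hmem
  have h1 : s * (g⁻¹ * d * g) = (g⁻¹ * d * g) * s := by
    rw [← hn]
    exact ((show Commute s d from hsd).zpow_right n).eq
  have h2 : v * d = d * v := by
    rw [← hgs]
    calc g * s * g⁻¹ * d = g * (s * (g⁻¹ * d * g)) * g⁻¹ := by group
      _ = g * ((g⁻¹ * d * g) * s) * g⁻¹ := by rw [h1]
      _ = d * (g * s * g⁻¹) := by group
  rw [h2, mul_inv_cancel_right] at hvd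
  have h3 : d * d = 1 := by
    nth_rewrite 1 [hvd]
    exact inv_mul_cancel d
  have h4 : orderOf d ∣ 2 := orderOf_dvd_of_pow_eq_one (by rw [pow_two, h3])
  obtain ⟨m, hm⟩ := hd
  have := Nat.le_of_dvd two_pos h4
  exact orderOf_eq_one_iff.1 (by omega)

end CfsgLib.RankOne
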